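import Mathlib
import Cfsg.Agent.Lib.Helper40.Tensor
import Cfsg.Agent.Lib.Helper57.TSO.Defs

/-!
# Project TSO (S5980), package [KEY] (helper76)

No Kronecker product `A ⊗ B ≠ 1` of odd prime order `r ≠ p` preserving `G₁ ⊗ G₂` has
`rank (A ⊗ B - 1) ≤ 2 s`, where `s` is minimal with `r ∣ q ^ (2 s) - 1`.
-/

set_option autoImplicit false

namespace Cfsg.Agent.Lib.Helper76.TSO

open Matrix
open scoped Kronecker

universe u

section aux

variable {F : Type u} [Field F] {a b : ℕ}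

theorem key_exists_entry {n : ℕ} (G : Matrix (Fin n) (Fin n) F) (hG : G ≠ 0) :
    ∃ i j, G i j ≠ 0 := by
  by_contra hh
  push Not at hh
  exact hG (by ext i j; exact hh i j)

theorem key_kron_cancel_left (G : Matrix (Fin a) (Fin a) F) (hG : G ≠ 0)
    (X Y : Matrix (Fin b) (Fin b) F) (h : G ⊗ₖ X = G ⊗ₖ Y) : X = Y := by
  obtain ⟨i, j, hij⟩ := key_exists_entry G hG
  ext k l
  have h1 := congrFun (congrFun h (i, k)) (j, l)
  rw [Matrix.kroneckerMap_apply, Matrix.kroneckerMap_apply] at h1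
  exact mul_left_cancel₀ hij h1

theorem key_kron_cancel_right (G : Matrix (Fin b) (Fin b) F) (hG : G ≠ 0)
    (X Y : Matrix (Fin a) (Fin a) F) (h : X ⊗ₖ G = Y ⊗ₖ G) : X = Y := by
  obtain ⟨k, l, hkl⟩ := key_exists_entry G hG
  ext i j
  have h1 := congrFun (congrFun h (i, k)) (j, l)
  rw [Matrix.kroneckerMap_apply, Matrix.kroneckerMap_apply] at h1
  exact mul_right_cancel₀ hkl h1

theorem key_scalar_of_kron' (A' : Matrix (Fin a) (Fin a) F) (B' : Matrix (Fin b) (Fin b) F)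
    (hA : A' ≠ 0) (z : F)
    (h : A' ⊗ₖ B' = z • (1 : Matrix (Fin a × Fin b) (Fin a × Fin b) F)) :
    ∃ z' : F, B' = z' • (1 : Matrix (Fin b) (Fin b) F) := by
  obtain ⟨i, j, hij⟩ := key_exists_entry A' hA
  refine ⟨(if i = j then z else 0) / A' i j, ?_⟩
  ext k l
  have h1 := congrFun (congrFun h (i, k)) (j, l)
  rw [Matrix.kroneckerMap_apply] at h1
  simp only [Matrix.smul_apply, Matrix.one_apply, Prod.mk.injEq, smul_eq_mul] at h1 ⊢
  rw [div_mul_eq_mul_div, eq_div_iff hij, mul_comm, h1]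
  by_cases hij' : i = j <;> by_cases hkl' : k = l <;> simp [hij', hkl']

theorem key_kron_one_sub (A : Matrix (Fin a) (Fin a) F) :
    A ⊗ₖ (1 : Matrix (Fin b) (Fin b) F) - 1 =
      (A - 1) ⊗ₖ (1 : Matrix (Fin b) (Fin b) F) := by
  ext ⟨i, k⟩ ⟨j, l⟩
  simp only [Matrix.sub_apply, Matrix.kroneckerMap_apply, Matrix.one_apply, Prod.mk.injEq]
  by_cases hij : i = j <;> by_cases hkl : k = l <;> simp [hij, hkl]

end aux

theorem key_num {q r s : ℕ} [Fact r.Prime] (hq1 : 1 ≤ q) (hqr : (q : ZMod r) ≠ 0) (hs : 1 ≤ s)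
    (hmin : ∀ s', 1 ≤ s' → s' < s → ¬ r ∣ q ^ (2 * s') - 1) :
    0 < orderOf (q : ZMod r) ∧ s ≤ orderOf (q : ZMod r) ∧
      (orderOf (q : ZMod r) = s → Odd (orderOf (q : ZMod r))) := by
  have hr : r.Prime := Fact.out
  have hpos : 0 < orderOf (q : ZMod r) := by
    apply orderOf_pos_iff.mpr
    rw [isOfFinOrder_iff_pow_eq_one]
    exact ⟨r - 1, by have := hr.two_le; omega, ZMod.pow_card_sub_one_eq_one hqr⟩
  have hdvd : ∀ k, (q : ZMod r) ^ k = 1 → r ∣ q ^ k - 1 := by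
    intro k hk
    rw [← ZMod.natCast_eq_zero_iff, Nat.cast_sub (Nat.one_le_pow _ _ hq1)]
    push_cast
    rw [hk, sub_self]
  refine ⟨hpos, ?_, ?_⟩
  · by_contra hlt
    push Not at hlt
    apply hmin _ hpos hlt
    apply hdvd
    rw [pow_mul', pow_orderOf_eq_one, one_pow]
  · intro hi
    by_contra hodd
    rw [Nat.not_odd_iff_even] at hodd
    obtain ⟨i', hi'⟩ := hodd
    have h1 : 1 ≤ i' := by omega
    apply hmin i' h1 (by omega)
    apply hdvd
    have h2 : 2 * i' = orderOf (q : ZMod r) := by omega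
    rw [h2, pow_orderOf_eq_one]

open Cfsg.Agent.Lib.Helper57.TSO in
/-- [KEY] -/
theorem pkgKey (h1 : PkgRank1.{u}) (h1' : PkgRank1'.{u}) (h3 : PkgRank3.{u})
    (h3' : PkgRank3'.{u}) (hOrd : PkgOrd.{u}) (hLoc : PkgLoc.{u}) (hPar : PkgPar.{u}) :
    PkgKey.{u} := by
  intro F _ _ p _ _ q hq hqodd a b haev ha2 hb3 r _ hr2 hrp s hs hsdvd hmin A B hA hB G₁ G₂ hG₁
    hG₂s hG₂d hform hMr hM1 hrank
  classical
  have hr : r.Prime := Fact.out
  have hqr : (q : ZMod r) ≠ 0 := Cfsg.Agent.Lib.Helper40.Subf5.natCast_card_ne_zero hq r hrp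
  have hq1 : 1 ≤ q := by rw [← hq]; exact Fintype.card_pos
  obtain ⟨hipos, hN1, hN2⟩ := key_num hq1 hqr hs hmin
  obtain ⟨i, hi⟩ : ∃ i, i = orderOf (q : ZMod r) := ⟨_, rfl⟩
  rw [← hi] at hipos hN1 hN2
  haveI : Nonempty (Fin a) := ⟨⟨0, by omega⟩⟩
  haveI : Nonempty (Fin b) := ⟨⟨0, by omega⟩⟩
  have hkp : (A ^ r) ⊗ₖ (B ^ r) = (1 : F) • (1 : Matrix (Fin a × Fin b) (Fin a × Fin b) F) := by
    rw [← Cfsg.Agent.Lib.Helper40.Tensor.kron_pow, hMr, one_smul]
  have hBr0 : B ^ r ≠ 0 := by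
    intro h
    have h0 : (B ^ r).det = 0 := by rw [h, Matrix.det_zero]
    rw [Matrix.det_pow] at h0
    exact hB (eq_zero_of_pow_eq_zero h0)
  have hAr0 : A ^ r ≠ 0 := by
    intro h
    have h0 : (A ^ r).det = 0 := by rw [h, Matrix.det_zero]
    rw [Matrix.det_pow] at h0
    exact hA (eq_zero_of_pow_eq_zero h0)
  obtain ⟨α, hα⟩ := Cfsg.Agent.Lib.Helper40.Tensor.scalar_of_kron (A ^ r) (B ^ r) hBr0 1 hkp
  obtain ⟨β, hβ⟩ := key_scalar_of_kron' (A ^ r) (B ^ r) hAr0 1 hkp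
  have h2F : (2 : F) ≠ 0 := by
    intro h
    have h1 : ringChar F = 2 :=
      CharP.ringChar_of_prime_eq_zero Nat.prime_two (by exact_mod_cast h)
    have h2 := FiniteField.even_card_iff_char_two.mp h1
    rw [hq] at h2
    rcases hqodd with ⟨m, hm⟩
    omega
  have hrodd : Odd r := hr.odd_of_ne_two hr2
  by_cases hAs : ∃ c : F, A = c • (1 : Matrix (Fin a) (Fin a) F)
  · obtain ⟨c, hc⟩ := hAs
    obtain ⟨B', hB'⟩ : ∃ B' : Matrix (Fin b) (Fin b) F, B' = c • B := ⟨_, rfl⟩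
    have hM : A ⊗ₖ B = (1 : Matrix (Fin a) (Fin a) F) ⊗ₖ B' := by
      rw [hc, hB', Matrix.smul_kronecker, Matrix.kronecker_smul]
    have hB'r : B' ^ r = 1 := by
      apply key_kron_cancel_left (1 : Matrix (Fin a) (Fin a) F) one_ne_zero
      rw [Matrix.one_kronecker_one, ← hMr, hM, Cfsg.Agent.Lib.Helper40.Tensor.kron_pow, one_pow]
    have hB'1 : B' ≠ 1 := by
      intro h
      apply hM1
      rw [hM, h, Matrix.one_kronecker_one]
    have hsub : A ⊗ₖ B - 1 = (1 : Matrix (Fin a) (Fin a) F) ⊗ₖ (B' - 1) := by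
      have h0 := Cfsg.Agent.Lib.Helper40.Tensor.one_kron_sub (a := a) B' 1
      rw [one_smul, one_smul] at h0
      rw [hM, h0]
    have hk1 := h1 a b (B' - 1)
    rw [← hsub] at hk1
    have hk2 := hOrd hq b r hrp B' hB'r hB'1
    rw [← hi] at hk2
    obtain ⟨k, hk⟩ : ∃ k, k = (B' - 1).rank := ⟨_, rfl⟩
    rw [← hk] at hk1 hk2
    have hkpos : 0 < k := lt_of_lt_of_le hipos hk2
    have ha : a = 2 := by nlinarith
    subst ha
    have hks : k = s := by omega
    have his : i = s := by omega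
    have hodd := hN2 his
    have hformB : B'ᵀ * G₂ * B' = G₂ := by
      apply key_kron_cancel_left G₁ hG₁
      rw [← hform, hc, hB']
      simp only [Matrix.transpose_smul, Matrix.transpose_one, Matrix.smul_mul, Matrix.mul_smul,
        Matrix.one_mul, Matrix.mul_one, Matrix.smul_kronecker, Matrix.kronecker_smul, smul_smul]
    have hev := hPar h2F b G₂ B' hG₂s hG₂d hformB r hrodd hB'r
    rw [← hk, hks, ← his] at hev
    exact (Nat.not_even_iff_odd.mpr hodd) hev
  · push Not at hAs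
    by_cases hBs : ∃ c : F, B = c • (1 : Matrix (Fin b) (Fin b) F)
    · obtain ⟨c, hc⟩ := hBs
      obtain ⟨A', hA'⟩ : ∃ A' : Matrix (Fin a) (Fin a) F, A' = c • A := ⟨_, rfl⟩
      have hM : A ⊗ₖ B = A' ⊗ₖ (1 : Matrix (Fin b) (Fin b) F) := by
        rw [hc, hA', Matrix.smul_kronecker, Matrix.kronecker_smul]
      have hA'r : A' ^ r = 1 := by
        apply key_kron_cancel_right (1 : Matrix (Fin b) (Fin b) F) one_ne_zero
        rw [Matrix.one_kronecker_one, ← hMr, hM, Cfsg.Agent.Lib.Helper40.Tensor.kron_pow,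
          one_pow]
      have hA'1 : A' ≠ 1 := by
        intro h
        apply hM1
        rw [hM, h, Matrix.one_kronecker_one]
      have hsub : A ⊗ₖ B - 1 = (A' - 1) ⊗ₖ (1 : Matrix (Fin b) (Fin b) F) := by
        rw [hM, key_kron_one_sub]
      have hk1 := h1' a b (A' - 1)
      rw [← hsub] at hk1
      have hk2 := hOrd hq a r hrp A' hA'r hA'1
      rw [← hi] at hk2
      obtain ⟨k, hk⟩ : ∃ k, k = (A' - 1).rank := ⟨_, rfl⟩
      rw [← hk] at hk1 hk2
      have hkpos : 0 < k := lt_of_lt_of_le hipos hk2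
      nlinarith
    · push Not at hBs
      have hb := Cfsg.Agent.Lib.Helper40.Tensor.rank_kron_ge A B hB hAs 1
      rw [one_smul] at hb
      by_cases hd : r ∣ q ^ 2 - 1
      · have hs1 : s = 1 := by
          by_contra hne
          exact hmin 1 le_rfl (by omega) (by simpa using hd)
        omega
      · obtain ⟨v, hv⟩ := hLoc hq a r hrp hd A hA α hα hAs
        obtain ⟨w, hw⟩ := hLoc hq b r hrp hd B hB β hβ hBs
        have e1 := h3 a b A B hB v hv
        have e2 := h3' a b A B hA w hw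
        have hdvd : r ∣ Nat.card (GL (Fin a) F) := by
          by_contra hnd
          obtain ⟨α', hα'⟩ := Cfsg.Agent.Lib.Helper40.Tensor.scalar_of_coprime
            (Matrix.GeneralLinearGroup.mkOfDetNeZero A hA) r hnd α hα
          exact hAs α' hα'
        have hia := Cfsg.Agent.Lib.Helper40.Tensor.le_of_dvd_card_GL hq a r hrp hdvd
        rw [← hi] at hia
        have his : i = s := by omega
        have hodd := hN2 his
        have hai : a = i := by omega
        rw [← hai] at hodd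
        exact (Nat.not_even_iff_odd.mpr hodd) haev

end Cfsg.Agent.Lib.Helper76.TSO
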